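import Cfsg.Agent.H330.TwoTimesMain
import Cfsg.Agent.CTwoTab.Exc

/-!
# A 2-central involution `J` with `C(J) = ⟨J⟩ × A₄` (S3285)
-/

set_option autoImplicit false

namespace Cfsg.Agent.H330.TwoTimesMain

open Subgroup Cfsg Cfsg.Agent.H330.TwoTimes Cfsg.Agent.H330.EightTrans

variable {G : Type*} [Group G]

/-- a simple group whose involution centralizers are 2-groups and whose Sylow 2-subgroups are elementary abelian of
order eight is `PSL(2,8)` -/
theorem psl_eight {K : Type*} [Group K] [Finite K] [IsSimpleGroup K] (hK : ¬ IsMulCommutative K) (S : Sylow 2 K)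
    (h8 : Nat.card (S : Subgroup K) = 8) (hel : ∀ a ∈ (S : Subgroup K), a * a = 1)
    (hC : ∀ t : K, orderOf t = 2 → IsPGroup 2 (centralizer ({t} : Set K))) :
    ∃ (F : Type) (_ : Field F) (_ : Fintype F), Fintype.card F = 8 ∧
      Nonempty (K ≃* Matrix.ProjectiveSpecialLinearGroup (Fin 2) F) := by
  have hp : Fact (Nat.Prime 2) := ⟨Nat.prime_two⟩
  obtain ⟨r, hr⟩ : ∃ r, Nat.card K = 8 * r := by
    have := card_mul_index (S : Subgroup K)
    rw [h8] at this
    exact ⟨_, this.symm⟩
  have hr2 : ¬ 2 ∣ r := by
    have := card_mul_index (S : Subgroup K)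
    rw [h8, hr] at this
    have h1 : r = (S : Subgroup K).index := by omega
    rw [h1]; exact S.not_dvd_index
  have hidx : ∀ N : Subgroup K, N.index ≠ 2 := by
    intro N hN
    have hn := normal_of_index_eq_two hN
    rcases hn.eq_bot_or_eq_top with h | h
    · rw [h, index_bot] at hN; omega
    · rw [h, index_top] at hN; exact absurd hN (by norm_num)
  have hna : ∃ a b : K, a * b ≠ b * a := by
    by_contra hcon
    push Not at hcon
    exact hK ⟨⟨hcon⟩⟩
  -- `56` divides `|N(S)|`
  have h7 : 56 ∣ Nat.card (normalizer ((S : Subgroup K) : Set K)) := by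
    have hJ : ∃ J ∈ (S : Subgroup K), J ≠ 1 := by
      by_contra hcon
      push Not at hcon
      have : (S : Subgroup K) = ⊥ := by
        rw [eq_bot_iff]; intro x hx; exact mem_bot.2 (hcon x hx)
      rw [this, card_bot] at h8
      exact absurd h8 (by norm_num)
    obtain ⟨J, hJS, hJ1⟩ := hJ
    -- orbit of `J`
    set N := normalizer ((S : Subgroup K) : Set K) with hN
    let f : N ⧸ ((centralizer ({J} : Set K)).subgroupOf N) → {s : K // s ∈ (S : Subgroup K) ∧ s ≠ 1} :=
      Quotient.lift (fun g : N => (⟨(g : K) * J * (g : K)⁻¹, ⟨(mem_normalizer_iff.1 g.2 J).1 hJS, by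
        intro h
        apply hJ1
        calc J = (g : K)⁻¹ * ((g : K) * J * (g : K)⁻¹) * g := by group
          _ = 1 := by rw [h]; group⟩⟩ : {s : K // s ∈ (S : Subgroup K) ∧ s ≠ 1})) (by
        intro a b hab
        have h0 : a⁻¹ * b ∈ (centralizer ({J} : Set K)).subgroupOf N := QuotientGroup.leftRel_apply.1 hab
        have h1 : ((a⁻¹ * b : N) : K) ∈ centralizer ({J} : Set K) := h0
        have h2 : (a : K)⁻¹ * b * J = J * ((a : K)⁻¹ * b) := mem_centralizer_singleton_iff.1 h1
        apply Subtype.ext
        show (a : K) * J * (a : K)⁻¹ = (b : K) * J * (b : K)⁻¹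
        calc (a : K) * J * (a : K)⁻¹ = a * (J * ((a : K)⁻¹ * b)) * (b : K)⁻¹ := by group
          _ = a * ((a : K)⁻¹ * b * J) * (b : K)⁻¹ := by rw [h2]
          _ = _ := by group)
    have hf : Function.Bijective f := by
      constructor
      · intro x y
        induction x using QuotientGroup.induction_on with
        | H a =>
          induction y using QuotientGroup.induction_on with
          | H b =>
            intro hab
            have h1 : (a : K) * J * (a : K)⁻¹ = (b : K) * J * (b : K)⁻¹ := congrArg Subtype.val hab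
            apply QuotientGroup.eq.2
            show ((a⁻¹ * b : N) : K) ∈ centralizer ({J} : Set K)
            rw [mem_centralizer_singleton_iff]
            show (a : K)⁻¹ * b * J = J * ((a : K)⁻¹ * b)
            calc (a : K)⁻¹ * b * J = (a : K)⁻¹ * (b * J * (b : K)⁻¹) * b := by group
              _ = (a : K)⁻¹ * (a * J * (a : K)⁻¹) * b := by rw [h1]
              _ = _ := by group
      · rintro ⟨s, hs, hs1⟩
        obtain ⟨n, hn, hns⟩ := exists_conj hidx S h8 hel hJS hs hJ1 hs1
        exact ⟨QuotientGroup.mk ⟨n, hn⟩, Subtype.ext hns⟩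
    have hcard : Nat.card {s : K // s ∈ (S : Subgroup K) ∧ s ≠ 1} = 7 := by
      have h1 : ({s : K | s ∈ (S : Subgroup K) ∧ s ≠ 1}).ncard = 7 := by
        have h2 : {s : K | s ∈ (S : Subgroup K) ∧ s ≠ 1} = ((S : Subgroup K) : Set K) \ {1} := rfl
        rw [h2, Set.ncard_sdiff_singleton_of_mem (one_mem (S : Subgroup K))]
        have h3 : ((S : Subgroup K) : Set K).ncard = 8 := h8
        rw [h3]
      exact h1
    have hi7 : ((centralizer ({J} : Set K)).subgroupOf N).index = 7 := by
      rw [← hcard]; exact Nat.card_congr (Equiv.ofBijective f hf)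
    have hd7 : 7 ∣ Nat.card N := by
      rw [← hi7]; exact index_dvd_card _
    have hd8 : 8 ∣ Nat.card N := by
      rw [← h8]; exact card_dvd_of_le le_normalizer
    have : (56 : ℕ) = 7 * 8 := by norm_num
    rw [this]
    exact Nat.Coprime.mul_dvd_of_dvd_of_dvd (by norm_num) hd7 hd8
  have h56 : 56 ∣ Nat.card K := h7.trans (card_subgroup_dvd_card _)
  rcases S0348.result hna hC with ⟨F, i1, i2, hF, ⟨e⟩⟩ | ⟨F, i1, i2, hF, ⟨e⟩⟩ | ⟨hs, m, hm, hcm⟩
  · -- `PSL(2, F)`
    rcases hF with hF | ⟨n, hn⟩ | ⟨hpr, k, hk⟩
    · exfalso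
      have h1 := ClassicalGeometry.PSL2Basic.card_PSL2_odd F (by rw [hF]; decide)
      rw [← Nat.card_congr e.toEquiv, hF] at h1
      omega
    · refine ⟨F, i1, i2, ?_, ⟨e⟩⟩
      have hn0 : n ≠ 0 := by
        rintro rfl
        have : 1 < Fintype.card F := Fintype.one_lt_card
        omega
      have h1 := ClassicalGeometry.PSL2Basic.card_PSL2_even F (by rw [hn]; exact (even_two).pow_of_ne_zero hn0)
      rw [← Nat.card_congr e.toEquiv, hn, hr] at h1
      have hodd : ¬ 2 ∣ (2 ^ n) ^ 2 - 1 := by
        intro h
        have h2 : 2 ∣ (2 ^ n) ^ 2 := dvd_pow (dvd_pow_self 2 hn0) (by norm_num)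
        have h3 : 0 < (2 ^ n) ^ 2 := by positivity
        omega
      rw [hn]
      have hle : n ≤ 3 := by
        by_contra hcon
        have h16 : 16 ∣ 8 * r := by
          rw [h1]; exact (pow_dvd_pow 2 (by omega : 4 ≤ n)).mul_right _
        omega
      have hge : 3 ≤ n := by
        by_contra hcon
        have h3 : n = 1 ∨ n = 2 := by omega
        rcases h3 with rfl | rfl
        · norm_num at h1; omega
        · norm_num at h1; omega
      have : n = 3 := by omega
      rw [this]
      norm_num
    · exfalso
      have hq2 := hpr.two_le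
      have hqodd : Odd (Fintype.card F) := by
        rcases hpr.eq_two_or_odd' with h | h
        · exfalso
          have h1 := ClassicalGeometry.PSL2Basic.card_PSL2_even F (by rw [h]; decide)
          rw [← Nat.card_congr e.toEquiv, h] at h1
          omega
        · exact h
      have h1 := ClassicalGeometry.PSL2Basic.card_PSL2_odd F hqodd
      rw [← Nat.card_congr e.toEquiv, hr] at h1
      set q := Fintype.card F with hq
      have h16 : q ^ 2 - 1 = (q - 1) * (q + 1) := by
        have : q ^ 2 = q * q := sq q
        obtain ⟨s, hs⟩ : ∃ s, q = s + 1 := ⟨q - 1, by omega⟩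
        rw [hs]
        have : (s + 1) ^ 2 = s * (s + 1 + 1) + 1 := by ring
        rw [this]
        simp
      have hq7 : q = 7 := by
        rcases hk with hk | hk
        · -- `q = 2 ^ k + 1`
          exfalso
          rcases Nat.lt_or_ge k 4 with hk4 | hk4
          · interval_cases k
            · norm_num at hk; rw [hk] at hqodd; exact absurd hqodd (by decide)
            · norm_num at hk; rw [hk] at h1; omega
            · norm_num at hk; rw [hk] at h1; omega
            · norm_num at hk; rw [hk] at hpr; exact absurd hpr (by norm_num)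
          · have h2 : 32 ∣ (q - 1) * (q + 1) := by
              have h3 : 16 ∣ q - 1 := by
                rw [hk, Nat.add_sub_cancel]; exact pow_dvd_pow 2 (by omega : 4 ≤ k)
              have h4 : 2 ∣ q + 1 := by
                obtain ⟨s, hs⟩ := hqodd; omega
              have : (32 : ℕ) = 16 * 2 := by norm_num
              rw [this]; exact mul_dvd_mul h3 h4
            have h5 : 32 ∣ 8 * r * 2 := by
              rw [h1, h16]; exact h2.mul_left _
            omega
        · rcases Nat.lt_or_ge k 4 with hk4 | hk4
          · interval_cases k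
            · omega
            · omega
            · exfalso
              have : q = 3 := by omega
              rw [this] at h1; omega
            · omega
          · exfalso
            have h2 : 32 ∣ (q - 1) * (q + 1) := by
              have h3 : 16 ∣ q + 1 := by
                rw [hk]; exact pow_dvd_pow 2 (by omega : 4 ≤ k)
              have h4 : 2 ∣ q - 1 := by
                obtain ⟨s, hs⟩ := hqodd; omega
              have : (32 : ℕ) = 2 * 16 := by norm_num
              rw [this]; exact mul_dvd_mul h4 h3
            have h5 : 32 ∣ 8 * r * 2 := by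
              rw [h1, h16]; exact h2.mul_left _
            omega
      rw [hq7] at h1
      have hK168 : Nat.card K = 168 := by omega
      -- the normalizer has index at most three
      set N := normalizer ((S : Subgroup K) : Set K) with hN
      have hidx3 : N.index = 1 ∨ N.index = 3 := by
        have h2 := N.card_mul_index
        obtain ⟨c, hc⟩ := h7
        rw [hK168, hc] at h2
        have h3 : c * N.index = 3 := by
          have : 56 * (c * N.index) = 56 * 3 := by rw [← mul_assoc, h2]
          exact Nat.eq_of_mul_eq_mul_left (by norm_num) this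
        exact (Nat.dvd_prime Nat.prime_three).1 ⟨c, by rw [mul_comm]; exact h3.symm⟩
      have hNtop : N ≠ ⊤ := by
        intro h
        have hn : (S : Subgroup K).Normal := normalizer_eq_top_iff.1 h
        rcases hn.eq_bot_or_eq_top with h | h
        · rw [h, card_bot] at h8; omega
        · rw [h, card_top, hK168] at h8; omega
      have h3 : N.index = 3 := hidx3.resolve_left (fun h => hNtop (index_eq_one.1 h))
      have hker : (MulAction.toPermHom K (K ⧸ N)).ker = ⊥ := by
        rcases (inferInstance : (MulAction.toPermHom K (K ⧸ N)).ker.Normal).eq_bot_or_eq_top with h | h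
        · exact h
        · exfalso
          rw [← normalCore_eq_ker] at h
          exact hNtop (top_le_iff.1 (h ▸ normalCore_le N))
      have hinj : Function.Injective (MulAction.toPermHom K (K ⧸ N)) := (MonoidHom.ker_eq_bot_iff _).1 hker
      have hd := card_dvd_of_injective _ hinj
      rw [Nat.card_perm] at hd
      have h4 : Nat.card (K ⧸ N) = 3 := h3
      rw [h4, hK168] at hd
      exact absurd hd (by decide)
  · exfalso
    have h1 := CTwoTab.card_PSL_three F hF
    rw [← Nat.card_congr e.toEquiv, hr] at h1
    omega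
  · exfalso
    rw [hcm] at hr
    have h64 : 64 ∣ 8 * r := by
      rw [← hr]
      refine Dvd.dvd.mul_right (Dvd.dvd.mul_right ?_ _) _
      rw [← pow_mul]
      exact pow_dvd_pow 2 (by omega : 6 ≤ (2 * m + 1) * 2)
    have : 2 ∣ r := by omega
    exact hr2 this

section four

variable {P : Sylow 2 G} {J : G} {T : Subgroup G}

/-- the kernel of the action by conjugation on a normal subgroup with trivial centralizer -/
theorem conjNormal_inj {K : Subgroup G} [K.Normal] (hc : centralizer (K : Set G) = ⊥) :
    Function.Injective (MulAut.conjNormal (H := K) : G →* MulAut K) := by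
  rw [← MonoidHom.ker_eq_bot_iff, eq_bot_iff, ← hc]
  intro x hx
  rw [mem_centralizer_iff]
  intro k hk
  have h1 : MulAut.conjNormal x (⟨k, hk⟩ : K) = ⟨k, hk⟩ := by
    rw [MonoidHom.mem_ker.1 hx]; rfl
  have h2 : x * k * x⁻¹ = k := by
    rw [← MulAut.conjNormal_apply x (⟨k, hk⟩ : K), h1]
  calc k * x = (x * k * x⁻¹) * x := by rw [h2]
    _ = x * k := by group

/-- **`m = 4`** -/
theorem four [Finite G] (hns : ¬ Group.IsSolvable G) (hG : ∀ N : Subgroup G, N.index ≠ 2) (D : Dat P J T)
    (e : T ≃* alternatingGroup (Fin 4)) :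
    ∃ (F : Type) (_ : Field F) (_ : Fintype F), Fintype.card F = 8 ∧
        Nonempty (G ≃* MulAut (Matrix.ProjectiveSpecialLinearGroup (Fin 2) F)) := by
  have hp : Fact (Nat.Prime 2) := ⟨Nat.prime_two⟩
  have hcT : Nat.card T = 12 := by rw [Nat.card_congr e.toEquiv, card_a4]
  have h8 := card_P D (Or.inl hcT)
  have hel := el_P D (Or.inl hcT) (fun x hx => by
    apply e.injective
    rw [map_mul, map_one]
    exact a4_sq (e x) (by rw [← map_pow, hx, map_one]))
  have hodd : ∀ N : Subgroup G, N.Normal → Odd (Nat.card N) → N = ⊥ := fun N hN ho =>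
    odd_normal hG P h8 hel D.mem D.ne_one hN ho (fix_triv D (fun M hM ho => a4_odd e hM ho) hN ho)
  have hPn := not_normal_four hns D e
  obtain ⟨K, hKn, hKs, hKna, hPK, hKc, -, -⟩ := EightSimple.exists_simple hG P h8 hel hodd hPn
  by_cases hTK : T ≤ K
  · exfalso
    have htop := eq_top_of_cent D hKn hPK h8 hel hTK
    subst htop
    have hGs : IsSimpleGroup G := (topEquiv (G := G)).symm.isSimpleGroup
    have hp3 : Fact (Nat.Prime 3) := ⟨Nat.prime_three⟩
    obtain ⟨g⟩ := S0251.result (F := ZMod 3) (ZMod.card 3)
    obtain ⟨f⟩ := centEquiv D (e.trans g.symm)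
    have hab : ∀ R : Sylow 2 G, ∀ a b : R, a * b = b * a := by
      intro R a b
      obtain ⟨g, hg⟩ := MulAction.exists_smul_eq G R P
      have hsq : ∀ a ∈ (R : Subgroup G), a * a = 1 := by
        intro a ha
        have h1 : g * a * g⁻¹ ∈ (P : Subgroup G) := by
          rw [← hg]
          exact ⟨a, ha, rfl⟩
        have h2 := hel _ h1
        have h3 : g * (a * a) * g⁻¹ = 1 := by
          rw [← h2]; group
        calc a * a = g⁻¹ * (g * (a * a) * g⁻¹) * g := by group
          _ = 1 := by rw [h3]; group
      apply Subtype.ext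
      have h1 := hsq (a * b) (mul_mem a.2 b.2)
      have h2 := hsq a a.2
      have h3 := hsq b b.2
      calc (a : G) * b = a * (a * b * (a * b)) * b := by rw [h1, mul_one]
        _ = (a * a) * (b * a) * (b * b) := by group
        _ = b * a := by rw [h2, h3, one_mul, mul_one]
    have hc3 : Fintype.card (ZMod 3) = 3 := ZMod.card 3
    rcases Ree.Reduce.reduce hab (F := ZMod 3) (by rw [hc3]) J D.ord ⟨f⟩ with ⟨h | h, -⟩ | ⟨-, h, -⟩
    · rw [hc3] at h; exact absurd h (by norm_num)
    · rw [hc3] at h; exact absurd h (by norm_num)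
    · rw [hc3] at h; exact absurd h (by norm_num)
  · -- the centralizer of `J` in `K` has order 8
    have hJK : J ∈ K := hPK D.mem
    have hCJ : Nat.card (centralizer ({J} : Set G)) = 24 := by rw [card_C D, hcT]
    have hcK : Nat.card (centralizer ({J} : Set G) ⊓ K : Subgroup G) = 8 := by
      have h1 : 8 ∣ Nat.card (centralizer ({J} : Set G) ⊓ K : Subgroup G) := by
        rw [← h8]; exact card_dvd_of_le (le_inf D.P_le hPK)
      have h2 : Nat.card (centralizer ({J} : Set G) ⊓ K : Subgroup G) ∣ 24 := by
        rw [← hCJ]; exact card_dvd_of_le inf_le_left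
      have h3 : Nat.card (centralizer ({J} : Set G) ⊓ K : Subgroup G) ≠ 24 := by
        intro h
        apply hTK
        have h4 : (centralizer ({J} : Set G) ⊓ K : Subgroup G) = centralizer ({J} : Set G) :=
          eq_of_le_of_card_ge inf_le_left (by rw [h, hCJ])
        exact D.T_le.trans (h4 ▸ inf_le_right)
      obtain ⟨c, hc⟩ := h1
      rw [hc] at h2 h3
      have h5 : c ∣ 3 := by
        obtain ⟨d, hd⟩ := h2
        exact ⟨d, by
          have : 8 * 3 = 8 * (c * d) := by rw [← mul_assoc, ← hd]
          exact Nat.eq_of_mul_eq_mul_left (by norm_num) this⟩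
      rcases (Nat.dvd_prime Nat.prime_three).1 h5 with rfl | rfl
      · exact hc
      · omega
    have hcK' : Nat.card (centralizer ({(⟨J, hJK⟩ : K)} : Set K)) = 8 := by
      have h1 : centralizer ({(⟨J, hJK⟩ : K)} : Set K) = (centralizer ({J} : Set G)).subgroupOf K := by
        ext x
        rw [mem_centralizer_singleton_iff, mem_subgroupOf, mem_centralizer_singleton_iff]
        exact Subtype.ext_iff
      rw [h1, ← inf_subgroupOf_right, ← hcK]
      exact Nat.card_congr (subgroupOfEquivOfLe inf_le_right).toEquiv
    have hcard : 8 ≤ Nat.card K := by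
      rw [← h8]; exact Nat.le_of_dvd Nat.card_pos (card_dvd_of_le hPK)
    let S : Sylow 2 K := P.subtype hPK
    have h8S : Nat.card (S : Subgroup K) = 8 := by
      rw [← h8]; exact Nat.card_congr (subgroupOfEquivOfLe hPK).toEquiv
    have helS : ∀ a ∈ (S : Subgroup K), a * a = 1 := fun a ha => Subtype.ext (hel _ ha)
    have hC : ∀ t : K, orderOf t = 2 → IsPGroup 2 (centralizer ({t} : Set K)) := by
      intro t ht
      have htt : t * t = 1 := by
        have := pow_orderOf_eq_one t
        rwa [ht, pow_two] at this
      have ht1 : t ≠ 1 := by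
        rintro rfl
        rw [orderOf_one] at ht
        exact absurd ht (by norm_num)
      obtain ⟨k, hk⟩ := all_conj (no_two (by omega)) S h8S helS (x := ⟨J, hJK⟩) (y := t)
        (Subtype.ext D.JJ) htt (fun h => D.ne_one (congrArg Subtype.val h)) ht1
      rintro ⟨x, hx⟩
      refine ⟨3, ?_⟩
      have hx' : x * t = t * x := mem_centralizer_singleton_iff.1 hx
      have h1 : k⁻¹ * x * k ∈ centralizer ({(⟨J, hJK⟩ : K)} : Set K) := by
        rw [mem_centralizer_singleton_iff]
        calc k⁻¹ * x * k * ⟨J, hJK⟩ = k⁻¹ * (x * (k * ⟨J, hJK⟩ * k⁻¹)) * k := by group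
          _ = k⁻¹ * ((k * ⟨J, hJK⟩ * k⁻¹) * x) * k := by rw [hk, hx']
          _ = _ := by group
      have h2 : (k⁻¹ * x * k) ^ 8 = 1 := by
        have := pow_card_eq_one' (G := centralizer ({(⟨J, hJK⟩ : K)} : Set K)) (x := ⟨_, h1⟩)
        rw [hcK'] at this
        exact congrArg Subtype.val this
      have h3 : x ^ 8 = 1 := by
        have h4 : (k⁻¹ * x * k) ^ 8 = k⁻¹ * x ^ 8 * k := by
          have := conj_pow (i := 8) (a := k⁻¹) (b := x)
          rw [inv_inv] at this
          exact this
        rw [h4] at h2
        calc x ^ 8 = k * (k⁻¹ * x ^ 8 * k) * k⁻¹ := by group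
          _ = 1 := by rw [h2]; group
      exact Subtype.ext h3
    obtain ⟨F, i1, i2, hF, ⟨f⟩⟩ := psl_eight hKna S h8S helS hC
    refine ⟨F, i1, i2, hF, ?_⟩
    -- orders
    have hcF : Nat.card K = 504 := by
      rw [Nat.card_congr f.toEquiv, ClassicalGeometry.PSL2Basic.card_PSL2_even F (by rw [hF]; decide), hF]
      norm_num
    have hchar : CharP F 2 := by
      obtain ⟨q, hq⟩ := CharP.exists F
      obtain ⟨n, hqp, hn⟩ := FiniteField.card F q
      have hd : q ∣ 2 ^ 3 := by
        have : (2 : ℕ) ^ 3 = Fintype.card F := by rw [hF]; norm_num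
        rw [this, hn]
        exact dvd_pow_self q n.pos.ne'
      have : q = 2 := (Nat.prime_dvd_prime_iff_eq hqp Nat.prime_two).1 (hqp.dvd_of_dvd_pow hd)
      rwa [this] at hq
    have hcA : Nat.card (MulAut (Matrix.ProjectiveSpecialLinearGroup (Fin 2) F)) = 1512 := by
      rw [ClassicalGeometry.AutPSL.Main.card_two 2, ClassicalGeometry.PSL2Basic.card_PGL2,
        Lib.FieldAutCard.card_ringAut (p := 2) (f := 3) (by norm_num) (by rw [hF]; norm_num), hF]
      norm_num
    let φ : G →* MulAut (Matrix.ProjectiveSpecialLinearGroup (Fin 2) F) :=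
      (MulAut.congr f).toMonoidHom.comp (MulAut.conjNormal (H := K))
    have hφ : Function.Injective φ := (MulAut.congr f).injective.comp (conjNormal_inj hKc)
    have hd : Nat.card G ∣ 1512 := by rw [← hcA]; exact card_dvd_of_injective φ hφ
    have hdK : 504 ∣ Nat.card G := by rw [← hcF]; exact card_subgroup_dvd_card K
    have hne : Nat.card G ≠ 504 := by
      intro h
      apply hTK
      have : K = ⊤ := eq_top_of_card_eq K (by rw [hcF, h])
      rw [this]; exact le_top
    have hG : Nat.card G = 1512 := by
      obtain ⟨c, hc⟩ := hdK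
      rw [hc] at hd hne
      have h5 : c ∣ 3 := by
        obtain ⟨d, hd⟩ := hd
        exact ⟨d, by
          have : 504 * 3 = 504 * (c * d) := by rw [← mul_assoc, ← hd]
          exact Nat.eq_of_mul_eq_mul_left (by norm_num) this⟩
      rcases (Nat.dvd_prime Nat.prime_three).1 h5 with rfl | rfl
      · omega
      · rw [hc]
    have : Finite (MulAut (Matrix.ProjectiveSpecialLinearGroup (Fin 2) F)) :=
      Nat.finite_of_card_ne_zero (by rw [hcA]; norm_num)
    exact ⟨MulEquiv.ofBijective φ ((Nat.bijective_iff_injective_and_card φ).2 ⟨hφ, by rw [hG, hcA]⟩)⟩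

end four

end Cfsg.Agent.H330.TwoTimesMain
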