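import Cfsg.Agent.H330.TwoTimes
import Cfsg.Agent.H330.EightSimple
import Cfsg.Agent.Ree.Reduce
import Cfsg.Agent.S0251
import Cfsg.Agent.S0348
import Cfsg.Agent.S1644
import Cfsg.Agent.BpAlt.Row
import Cfsg.Agent.ClassicalGeometry.AutPSL.Main
import Cfsg.Agent.Lib.FieldAutCard

/-!
# A 2-central involution `J` with `C(J) = ⟨J⟩ × A_m`, `m = 4, 5` (S3285)
-/

set_option autoImplicit false

namespace Cfsg.Agent.H330.TwoTimesMain

open Subgroup Cfsg Cfsg.Agent.H330.TwoTimes Cfsg.Agent.H330.EightTrans

variable {G : Type*} [Group G]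

/-- an internal direct product is a direct product -/
theorem prodEquiv {A B S : Subgroup G} (h : Cfsg.IsInternalDirectProduct A B S) : Nonempty (S ≃* A × B) := by
  obtain ⟨hA, hB, hc, hi, hs⟩ := h
  let f : A × B →* G := A.subtype.noncommCoprod B.subtype (fun a b => hc a a.2 b b.2)
  have hinj : Function.Injective f := by
    refine (MonoidHom.noncommCoprod_injective _ _ _).2 ⟨A.subtype_injective, B.subtype_injective, ?_⟩
    rw [range_subtype, range_subtype, disjoint_iff]
    exact hi
  have hr : f.range = S := by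
    refine (MonoidHom.noncommCoprod_range _ _ _).trans ?_
    rw [range_subtype, range_subtype]
    exact hs
  exact ⟨((MonoidHom.ofInjective hinj).trans (MulEquiv.subgroupCongr hr)).symm⟩

theorem a4_sq : ∀ x : alternatingGroup (Fin 4), x ^ 4 = 1 → x * x = 1 := by decide +kernel

set_option maxRecDepth 100000 in
theorem a5_sq : ∀ x : alternatingGroup (Fin 5), x ^ 4 = 1 → x * x = 1 := by decide +kernel

theorem a4_comm : ∀ x : alternatingGroup (Fin 4), x ≠ 1 → ∃ g : alternatingGroup (Fin 4),
    (x * (g * x⁻¹ * g⁻¹)) * (x * (g * x⁻¹ * g⁻¹)) = 1 ∧ x * (g * x⁻¹ * g⁻¹) ≠ 1 := by decide +kernel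

theorem card_a4 : Nat.card (alternatingGroup (Fin 4)) = 12 := by
  rw [nat_card_alternatingGroup, Nat.card_eq_fintype_card, Fintype.card_fin]; rfl

theorem card_a5 : Nat.card (alternatingGroup (Fin 5)) = 60 := by
  rw [nat_card_alternatingGroup, Nat.card_eq_fintype_card, Fintype.card_fin]; rfl

theorem odd_elt {N : Subgroup G} [Finite G] (hN : Odd (Nat.card N)) {x : G} (hx : x ∈ N) (h : x * x = 1) : x = 1 := by
  have h6 : orderOf x ∣ 2 := orderOf_dvd_of_pow_eq_one (by rw [pow_two]; exact h)
  have h7 : orderOf x ∣ Nat.card N := by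
    rw [← Subgroup.orderOf_mk x hx]
    exact orderOf_dvd_natCard _
  have hc : Nat.Coprime 2 (Nat.card N) := (Nat.coprime_two_left).2 hN
  have := Nat.dvd_gcd h6 h7
  rw [hc] at this
  exact orderOf_eq_one_iff.1 (Nat.dvd_one.1 this)

/-- odd normal subgroups of `A₄` are trivial -/
theorem a4_odd {T : Type*} [Group T] [Finite T] (e : T ≃* alternatingGroup (Fin 4)) {N : Subgroup T} (hN : N.Normal)
    (hodd : Odd (Nat.card N)) : N = ⊥ := by
  rw [eq_bot_iff]
  intro x hx
  rw [mem_bot]
  by_contra hx1
  obtain ⟨g, hg1, hg2⟩ := a4_comm (e x) (fun h => hx1 (e.injective (by rw [h, map_one])))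
  have hy : x * (e.symm g * x⁻¹ * (e.symm g)⁻¹) ∈ N := mul_mem hx (hN.conj_mem _ (inv_mem hx) _)
  have he : e (x * (e.symm g * x⁻¹ * (e.symm g)⁻¹)) = e x * (g * (e x)⁻¹ * g⁻¹) := by simp
  have h1 := odd_elt hodd hy (by
    apply e.injective
    rw [map_mul, he, hg1, map_one])
  apply hg2
  rw [← he, h1, map_one]

/-- odd normal subgroups of `A₅` are trivial -/
theorem a5_odd {T : Type*} [Group T] [Finite T] (e : T ≃* alternatingGroup (Fin 5)) {N : Subgroup T} (hN : N.Normal)
    (hodd : Odd (Nat.card N)) : N = ⊥ := by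
  have : IsSimpleGroup T := e.isSimpleGroup
  rcases hN.eq_bot_or_eq_top with h | h
  · exact h
  · exfalso
    rw [h, card_top, Nat.card_congr e.toEquiv, card_a5] at hodd
    exact absurd hodd (by decide)

section facts

variable {P : Sylow 2 G} {J : G} {T : Subgroup G}

theorem card_PT [Finite G] (D : Dat P J T) (hT : Nat.card T = 12 ∨ Nat.card T = 60) :
    Nat.card ((P : Subgroup G) ⊓ T : Subgroup G) = 4 := by
  have hp : Fact (Nat.Prime 2) := ⟨Nat.prime_two⟩
  have h1 : IsPGroup 2 ((P : Subgroup G) ⊓ T : Subgroup G) := P.2.to_le inf_le_left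
  obtain ⟨k, hk⟩ := IsPGroup.iff_card.1 h1
  have h2 := relIndex_mul_relIndex ⊥ ((P : Subgroup G) ⊓ T) T bot_le inf_le_right
  rw [relIndex_bot_left, relIndex_bot_left, hk] at h2
  have h3 := D.not_dvd
  rw [hk]
  set r := ((P : Subgroup G) ⊓ T).relIndex T with hr
  have h4 : 2 ^ k ≤ 60 := by
    have : 2 ^ k ∣ Nat.card T := ⟨r, h2.symm⟩
    rcases hT with h | h <;> rw [h] at this <;> exact (Nat.le_of_dvd (by norm_num) this).trans (by norm_num)
  have h5 : k < 6 := by
    by_contra hcon
    have : 2 ^ 6 ≤ 2 ^ k := Nat.pow_le_pow_right (by norm_num) (by omega)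
    omega
  interval_cases k <;> rcases hT with h | h <;> rw [h] at h2 <;> omega

theorem card_P [Finite G] (D : Dat P J T) (hT : Nat.card T = 12 ∨ Nat.card T = 60) :
    Nat.card (P : Subgroup G) = 8 := by
  have h2 := relIndex_mul_relIndex ⊥ ((P : Subgroup G) ⊓ T) (P : Subgroup G) bot_le inf_le_left
  rw [relIndex_bot_left, relIndex_bot_left, card_PT D hT, D.relIndex_P] at h2
  omega

theorem card_C [Finite G] (D : Dat P J T) : Nat.card (centralizer ({J} : Set G)) = 2 * Nat.card T := by
  have h2 := relIndex_mul_relIndex ⊥ T (centralizer ({J} : Set G)) bot_le D.T_le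
  rw [relIndex_bot_left, relIndex_bot_left, D.relIndex_T] at h2
  omega

theorem el_P [Finite G] (D : Dat P J T) (hT : Nat.card T = 12 ∨ Nat.card T = 60)
    (hsq : ∀ x : T, x ^ 4 = 1 → x * x = 1) : ∀ a ∈ (P : Subgroup G), a * a = 1 := by
  have hb : ∀ b ∈ ((P : Subgroup G) ⊓ T : Subgroup G), b * b = 1 := by
    intro b hb
    have h1 : b ^ 4 = 1 := by
      rw [← card_PT D hT]
      exact congrArg Subtype.val (pow_card_eq_one' (x := (⟨b, hb⟩ : ((P : Subgroup G) ⊓ T : Subgroup G))))
    exact congrArg Subtype.val (hsq ⟨b, hb.2⟩ (Subtype.ext h1))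
  intro a ha
  rcases D.cases (D.P_le ha) with h | h
  · exact hb a ⟨ha, h⟩
  · have h1 := hb (J * a) ⟨mul_mem D.mem ha, h⟩
    have h2 := D.cen a ha
    calc a * a = (J * J) * (a * a) := by rw [D.JJ, one_mul]
      _ = J * (J * a) * a := by group
      _ = J * (a * J) * a := by rw [h2]
      _ = (J * a) * (J * a) := by group
      _ = 1 := h1

/-- odd normal subgroups meet `C(J)` trivially -/
theorem fix_triv [Finite G] (D : Dat P J T) (hT : ∀ N : Subgroup T, N.Normal → Odd (Nat.card N) → N = ⊥)
    {N : Subgroup G} (hN : N.Normal) (hodd : Odd (Nat.card N)) : ∀ n ∈ N, n * J = J * n → n = 1 := by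
  intro n hn hnJ
  have hnT : n ∈ T := by
    have h2 : n * n ∈ T := by
      rcases D.cases (mem_centralizer_singleton_iff.2 hnJ) with h | h
      · exact mul_mem h h
      · have : n * n = (J * n) * (J * n) := by
          calc n * n = (J * J) * (n * n) := by rw [D.JJ, one_mul]
            _ = J * (J * n) * n := by group
            _ = J * (n * J) * n := by rw [hnJ]
            _ = _ := by group
        rw [this]; exact mul_mem h h
    obtain ⟨k, hk⟩ := hodd
    have h3 : n ^ (Nat.card N) = 1 := congrArg Subtype.val (pow_card_eq_one' (x := (⟨n, hn⟩ : N)))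
    have h4 : n = (n * n) ^ (k + 1) := by
      rw [← pow_two, ← pow_mul]
      have : 2 * (k + 1) = Nat.card N + 1 := by omega
      rw [this, pow_succ, h3, one_mul]
    rw [h4]
    exact pow_mem h2 _
  have h1 : N.subgroupOf T = ⊥ := by
    apply hT
    · exact hN.subgroupOf T
    · have h5 : Nat.card (N.subgroupOf T) ∣ Nat.card N := by
        rw [Subgroup.subgroupOf]
        exact card_comap_dvd_of_injective N T.subtype T.subtype_injective
      exact Odd.of_dvd_nat hodd h5
  have h2 : (⟨n, hnT⟩ : T) ∈ N.subgroupOf T := hn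
  rw [h1, mem_bot] at h2
  exact congrArg Subtype.val h2

theorem card_sub [Finite G] (D : Dat P J T) (hT : Nat.card T = 12 ∨ Nat.card T = 60) :
    Nat.card ((P : Subgroup G).subgroupOf T) = 4 := by
  rw [← card_PT D hT, ← inf_subgroupOf_right]
  exact Nat.card_congr (subgroupOfEquivOfLe inf_le_right).toEquiv

/-- the centralizer of `J` as a direct product -/
theorem centEquiv (D : Dat P J T) {X : Type*} [Group X] (e : T ≃* X) :
    Nonempty (centralizer ({J} : Set G) ≃* Multiplicative (ZMod 2) × X) := by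
  have : Fact (Nat.Prime 2) := ⟨Nat.prime_two⟩
  obtain ⟨f⟩ := prodEquiv D.dir
  have h1 : Nat.card (zpowers J) = 2 := by rw [Nat.card_zpowers, D.ord]
  have h2 : Nat.card (Multiplicative (ZMod 2)) = 2 := by
    rw [Nat.card_eq_fintype_card, Fintype.card_multiplicative, ZMod.card]
  exact ⟨f.trans ((mulEquivOfPrimeCardEq h1 h2).prodCongr e)⟩

theorem no_two [Finite G] {K : Subgroup G} [hs : IsSimpleGroup K] (h4 : 2 < Nat.card K) : ∀ N : Subgroup K, N.index ≠ 2 := by
  intro N hN
  have hn := normal_of_index_eq_two hN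
  rcases hn.eq_bot_or_eq_top with h | h
  · rw [h, index_bot] at hN; omega
  · rw [h, index_top] at hN; exact absurd hN (by norm_num)

/-- if `C(J) ≤ K` then `K = G` -/
theorem eq_top_of_cent [Finite G] (D : Dat P J T) {K : Subgroup G} [hs : IsSimpleGroup K] (hKn : K.Normal)
    (hPK : (P : Subgroup G) ≤ K) (h8 : Nat.card (P : Subgroup G) = 8) (hel : ∀ a ∈ (P : Subgroup G), a * a = 1)
    (hT : T ≤ K) : K = ⊤ := by
  have hJK : J ∈ K := hPK D.mem
  have hC : centralizer ({J} : Set G) ≤ K := by
    intro c hc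
    rcases D.cases hc with h | h
    · exact hT h
    · have : c = J⁻¹ * (J * c) := by group
      rw [this]
      exact mul_mem (inv_mem hJK) (hT h)
  have hcard : 8 ≤ Nat.card K := by
    rw [← h8]; exact Nat.le_of_dvd Nat.card_pos (card_dvd_of_le hPK)
  let S : Sylow 2 K := P.subtype hPK
  have h8S : Nat.card (S : Subgroup K) = 8 := by
    rw [← h8]; exact Nat.card_congr (subgroupOfEquivOfLe hPK).toEquiv
  have helS : ∀ a ∈ (S : Subgroup K), a * a = 1 := fun a ha => Subtype.ext (hel _ ha)
  rw [eq_top_iff]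
  intro g _
  have hgJ : g * J * g⁻¹ ∈ K := hKn.conj_mem J hJK g
  obtain ⟨k, hk⟩ := all_conj (no_two (by omega)) S h8S helS (x := ⟨J, hJK⟩) (y := ⟨g * J * g⁻¹, hgJ⟩)
    (Subtype.ext D.JJ) (Subtype.ext (by
      show g * J * g⁻¹ * (g * J * g⁻¹) = 1
      calc g * J * g⁻¹ * (g * J * g⁻¹) = g * (J * J) * g⁻¹ := by group
        _ = 1 := by rw [D.JJ]; group)) (fun h => D.ne_one (congrArg Subtype.val h)) (fun h => by
      apply D.ne_one
      have h1 : g * J * g⁻¹ = 1 := congrArg Subtype.val h
      calc J = g⁻¹ * (g * J * g⁻¹) * g := by group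
        _ = 1 := by rw [h1]; group)
  have hk' : (k : G) * J * (k : G)⁻¹ = g * J * g⁻¹ := congrArg Subtype.val hk
  have h1 : (k : G)⁻¹ * g ∈ centralizer ({J} : Set G) := by
    rw [mem_centralizer_singleton_iff]
    calc (k : G)⁻¹ * g * J = (k : G)⁻¹ * (g * J * g⁻¹) * g := by group
      _ = (k : G)⁻¹ * ((k : G) * J * (k : G)⁻¹) * g := by rw [hk']
      _ = _ := by group
  have h2 := mul_mem k.2 (hC h1)
  have h3 : (k : G) * ((k : G)⁻¹ * g) = g := by group
  rwa [h3] at h2

/-- **`m = 5`** -/
theorem five [Finite G] (hG : ∀ N : Subgroup G, N.index ≠ 2) (D : Dat P J T) (e : T ≃* alternatingGroup (Fin 5)) :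
    Cfsg.Spor.IsoJ1 G := by
  have hTs : IsSimpleGroup T := e.isSimpleGroup
  have hcT : Nat.card T = 60 := by rw [Nat.card_congr e.toEquiv, card_a5]
  have h8 := card_P D (Or.inr hcT)
  have hel := el_P D (Or.inr hcT) (fun x hx => by
    apply e.injective
    rw [map_mul, map_one]
    exact a5_sq (e x) (by rw [← map_pow, hx, map_one]))
  have hodd : ∀ N : Subgroup G, N.Normal → Odd (Nat.card N) → N = ⊥ := fun N hN ho =>
    odd_normal hG P h8 hel D.mem D.ne_one hN ho (fix_triv D (fun M hM ho => a5_odd e hM ho) hN ho)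
  have hPn : ¬ (P : Subgroup G).Normal := by
    intro hn
    have h1 : ((P : Subgroup G).subgroupOf T).Normal := hn.subgroupOf T
    have h2 := card_sub D (Or.inr hcT)
    rcases h1.eq_bot_or_eq_top with h | h
    · rw [h, card_bot] at h2; exact absurd h2 (by norm_num)
    · rw [h, card_top, hcT] at h2; exact absurd h2 (by norm_num)
  obtain ⟨K, hKn, hKs, -, hPK, -, -, -⟩ := EightSimple.exists_simple hG P h8 hel hodd hPn
  have hTK : T ≤ K := by
    have h1 : (K.subgroupOf T).Normal := hKn.subgroupOf T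
    rcases h1.eq_bot_or_eq_top with h | h
    · exfalso
      have h2 := card_sub D (Or.inr hcT)
      have h3 : (P : Subgroup G).subgroupOf T ≤ K.subgroupOf T := comap_mono hPK
      rw [h, le_bot_iff] at h3
      rw [h3, card_bot] at h2
      exact absurd h2 (by norm_num)
    · exact subgroupOf_eq_top.1 h
  have htop := eq_top_of_cent D hKn hPK h8 hel hTK
  subst htop
  have hGs : IsSimpleGroup G := (topEquiv (G := G)).symm.isSimpleGroup
  obtain ⟨f⟩ := centEquiv D e
  refine S1644.result P ?_ h8 J D.ord f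
  exact ⟨⟨fun a b => Subtype.ext (by
    have h1 := hel (a * b) (mul_mem a.2 b.2)
    have h2 := hel a a.2
    have h3 := hel b b.2
    calc (a : G) * b = a * (a * b * (a * b)) * b := by rw [h1, mul_one]
      _ = (a * a) * (b * a) * (b * b) := by group
      _ = b * a := by rw [h2, h3, one_mul, mul_one])⟩⟩

/-- a group with normal Sylow 2-subgroup of order 8 is not the case `m = 4` -/
theorem not_normal_four [Finite G] (hns : ¬ Group.IsSolvable G) (D : Dat P J T) (e : T ≃* alternatingGroup (Fin 4)) :
    ¬ (P : Subgroup G).Normal := by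
  intro hn
  apply hns
  have hcT : Nat.card T = 12 := by rw [Nat.card_congr e.toEquiv, card_a4]
  have h8 := card_P D (Or.inl hcT)
  have hC : Nat.card (centralizer ({J} : Set G)) = 24 := by rw [card_C D, hcT]
  -- the index of the centralizer
  have hidx : (centralizer ({J} : Set G)).index ≤ 8 := by
    rw [← h8]
    let f : G ⧸ centralizer ({J} : Set G) → (P : Subgroup G) := Quotient.lift
      (fun g : G => (⟨g * J * g⁻¹, hn.conj_mem J D.mem g⟩ : (P : Subgroup G))) (by
        intro a b hab
        have h1 : a⁻¹ * b ∈ centralizer ({J} : Set G) := QuotientGroup.leftRel_apply.1 hab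
        have h2 : a⁻¹ * b * J = J * (a⁻¹ * b) := mem_centralizer_singleton_iff.1 h1
        apply Subtype.ext
        show a * J * a⁻¹ = b * J * b⁻¹
        calc a * J * a⁻¹ = a * (J * (a⁻¹ * b)) * b⁻¹ := by group
          _ = a * (a⁻¹ * b * J) * b⁻¹ := by rw [h2]
          _ = _ := by group)
    have hf : Function.Injective f := by
      intro x y
      induction x using QuotientGroup.induction_on with
      | H a =>
        induction y using QuotientGroup.induction_on with
        | H b =>
          intro hab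
          have h1 : a * J * a⁻¹ = b * J * b⁻¹ := congrArg Subtype.val hab
          apply QuotientGroup.eq.2
          rw [mem_centralizer_singleton_iff]
          calc a⁻¹ * b * J = a⁻¹ * (b * J * b⁻¹) * b := by group
            _ = a⁻¹ * (a * J * a⁻¹) * b := by rw [h1]
            _ = _ := by group
    exact Nat.card_le_card_of_injective f hf
  have hGc : Nat.card G ≤ 192 := by
    have := card_mul_index (centralizer ({J} : Set G))
    rw [hC] at this
    omega
  have hq : Nat.card (G ⧸ (P : Subgroup G)) < 60 := by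
    have h1 := Subgroup.card_eq_card_quotient_mul_card_subgroup (P : Subgroup G)
    rw [h8] at h1
    omega
  have s1 : Group.IsSolvable (G ⧸ (P : Subgroup G)) := BpAlt.solvable_of_lt _ _ rfl hq
  have s2 : Group.IsSolvable (P : Subgroup G) := BpAlt.solvable_of_lt _ _ rfl (by rw [h8]; norm_num)
  exact Group.isSolvable_of_ker_le_range (P : Subgroup G).subtype (QuotientGroup.mk' (P : Subgroup G)) (by
    rw [QuotientGroup.ker_mk', range_subtype])

end facts

end Cfsg.Agent.H330.TwoTimesMain
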